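import Cfsg.Agent.NilType.Matrix
import Mathlib.GroupTheory.OrderOfElement
import Mathlib.RingTheory.Nilpotent.Basic
import Mathlib.RingTheory.Nilpotent.Lemmas
import Mathlib.Algebra.Group.Conj
import Mathlib.Algebra.CharP.Lemmas
import Mathlib.Algebra.Polynomial.AlgebraMap
import Mathlib.LinearAlgebra.Matrix.Nondegenerate

/-!
Unipotent classes and partitions.
-/

set_option autoImplicit false

open scoped Polynomial

namespace CfsgLib.NilType

variable {F : Type*} [Field F] {n : ℕ}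

theorem isConj_sub_one {g h : GL (Fin n) F} :
    IsConj g h ↔ IsConj ((g : Matrix (Fin n) (Fin n) F) - 1) ((h : Matrix (Fin n) (Fin n) F) - 1) := by
  constructor
  · rintro ⟨c, hc⟩
    refine ⟨(c : GL (Fin n) F), ?_⟩
    have e : (c : GL (Fin n) F).1 * g.1 = h.1 * (c : GL (Fin n) F).1 := congrArg Units.val hc.eq
    show (c : GL (Fin n) F).1 * (g.1 - 1) = (h.1 - 1) * (c : GL (Fin n) F).1
    rw [mul_sub, sub_mul, e, mul_one, one_mul]
  · rintro ⟨c, hc⟩
    have e : c.1 * (g.1 - 1) = (h.1 - 1) * c.1 := hc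
    rw [mul_sub, sub_mul, mul_one, one_mul, sub_left_inj] at e
    exact isConj_iff.2 ⟨c, mul_inv_eq_iff_eq_mul.2 (Units.ext e)⟩

/-- Unipotent with Jordan type `μ`. -/
def UniType (g : GL (Fin n) F) (μ : Nat.Partition n) : Prop :=
  IsNilpotent ((g : Matrix (Fin n) (Fin n) F) - 1) ∧ HasType ((g : Matrix (Fin n) (Fin n) F) - 1) μ

theorem UniType.isConj {g h : GL (Fin n) F} {μ : Nat.Partition n} (hg : UniType g μ) (hh : UniType h μ) :
    IsConj g h :=
  isConj_sub_one.2 (isConj_of_type hg.1 hh.1 hg.2 hh.2)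

theorem UniType.eq_of_isConj {g h : GL (Fin n) F} {μ ν : Nat.Partition n} (hg : UniType g μ) (hh : UniType h ν)
    (hc : IsConj g h) : μ = ν :=
  hg.2.unique fun m => (rank_of_isConj (isConj_sub_one.1 hc) m).trans (hh.2 m)

/-- A representative with entries `0` and `1`. -/
theorem exists_uniType (μ : Nat.Partition n) :
    ∃ g : GL (Fin n) F, UniType g μ ∧ ∀ f : F →+* F, g.1.map f = g.1 := by
  obtain ⟨A, hA, hAμ, hAf⟩ := exists_matrix (F := F) μ
  refine ⟨(IsNilpotent.isUnit_one_add hA).unit, ⟨?_, ?_⟩, fun f => ?_⟩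
  · rwa [IsUnit.unit_spec, add_sub_cancel_left]
  · rwa [IsUnit.unit_spec, add_sub_cancel_left]
  · rw [IsUnit.unit_spec, Matrix.map_add f (map_add f), Matrix.map_one f (map_zero f) (map_one f), hAf]

/-- Counting classes of a group whose conjugacy is controlled by the general linear group. -/
theorem card_classes {H : Type*} [Group H] (ι : H →* GL (Fin n) F)
    (hconj : ∀ a b, IsConj (ι a) (ι b) → IsConj a b) (P : H → Prop) (S : Finset (Nat.Partition n))
    (hP : ∀ h, P h ↔ ∃ μ ∈ S, UniType (ι h) μ) (hreal : ∀ μ ∈ S, ∃ h, UniType (ι h) μ) :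
    Nat.card {C : ConjClasses H // ∃ g : H, ConjClasses.mk g = C ∧ P g} = S.card := by
  classical
  choose rep hrep using hreal
  let φ : S → {C : ConjClasses H // ∃ g : H, ConjClasses.mk g = C ∧ P g} := fun μ =>
    ⟨ConjClasses.mk (rep μ.1 μ.2), rep μ.1 μ.2, rfl, (hP _).2 ⟨μ.1, μ.2, hrep _ _⟩⟩
  have hφ : Function.Bijective φ := by
    refine ⟨fun μ ν h => Subtype.ext ?_, fun ⟨C, g, hg, hPg⟩ => ?_⟩
    · exact (hrep μ.1 μ.2).eq_of_isConj (hrep ν.1 ν.2)
        (ι.map_isConj (ConjClasses.mk_eq_mk_iff_isConj.1 (congrArg Subtype.val h)))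
    · obtain ⟨μ, hμ, hgμ⟩ := (hP g).1 hPg
      refine ⟨⟨μ, hμ⟩, Subtype.ext ?_⟩
      show ConjClasses.mk (rep μ hμ) = C
      rw [← hg, ConjClasses.mk_eq_mk_iff_isConj]
      exact hconj _ _ ((hrep μ hμ).isConj hgμ)
  rw [← Nat.card_congr (Equiv.ofBijective φ hφ), Nat.card_eq_fintype_card, Fintype.card_coe]

variable (p : ℕ) [Fact p.Prime] [CharP F p]

theorem sub_one_pow (A : Matrix (Fin n) (Fin n) F) (k : ℕ) : (A - 1) ^ p ^ k = A ^ p ^ k - 1 := by
  have h : (Polynomial.X - 1 : F[X]) ^ p ^ k = Polynomial.X ^ p ^ k - 1 := by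
    rw [sub_pow_char_pow, one_pow]
  simpa using congrArg (Polynomial.aeval A) h

theorem exists_pow_iff (g : GL (Fin n) F) :
    (∃ k : ℕ, orderOf g = p ^ k) ↔ ∃ μ, UniType g μ := by
  constructor
  · rintro ⟨k, hk⟩
    have h : IsNilpotent (g.1 - 1) := ⟨p ^ k, by
      rw [sub_one_pow p, ← Units.val_pow_eq_pow_val, ← hk, pow_orderOf_eq_one, Units.val_one, sub_self]⟩
    obtain ⟨μ, hμ⟩ := exists_type h
    exact ⟨μ, h, hμ⟩
  · rintro ⟨μ, ⟨m, hm⟩, -⟩
    have hg : g ^ p ^ m = 1 := Units.ext (by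
      rw [Units.val_pow_eq_pow_val, Units.val_one, ← sub_eq_zero, ← sub_one_pow p,
        pow_eq_zero_of_le (Nat.lt_pow_self (Fact.out : p.Prime).one_lt).le hm])
    obtain ⟨i, -, hi⟩ := (Nat.dvd_prime_pow Fact.out).1 (orderOf_dvd_of_pow_eq_one hg)
    exact ⟨i, hi⟩

theorem orderOf_eq_iff_type (g : GL (Fin n) F) :
    orderOf g = p ↔ ∃ μ : Nat.Partition n, ((∀ a ∈ μ.parts, a ≤ p) ∧ ¬ ∀ a ∈ μ.parts, a ≤ 1) ∧ UniType g μ := by
  constructor
  · intro h
    obtain ⟨μ, hμ⟩ := (exists_pow_iff p g).1 ⟨1, by rw [h, pow_one]⟩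
    refine ⟨μ, ⟨(pow_eq_zero_iff_type hμ.2 p).1 ?_, fun h1 => ?_⟩, hμ⟩
    · have := sub_one_pow p g.1 1
      rw [pow_one] at this
      rw [this, ← Units.val_pow_eq_pow_val, ← h, pow_orderOf_eq_one, Units.val_one, sub_self]
    · have h2 := (pow_eq_zero_iff_type hμ.2 1).2 h1
      rw [pow_one, sub_eq_zero] at h2
      have : g = 1 := Units.ext h2
      rw [this, orderOf_one] at h
      exact (Fact.out : p.Prime).ne_one h.symm
  · rintro ⟨μ, ⟨hp, h1⟩, hμ⟩
    refine orderOf_eq_prime (Units.ext ?_) fun hg => h1 ((pow_eq_zero_iff_type hμ.2 1).1 ?_)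
    · have := sub_one_pow p g.1 1
      rw [pow_one, (pow_eq_zero_iff_type hμ.2 p).2 hp] at this
      rw [Units.val_pow_eq_pow_val, Units.val_one]
      exact (sub_eq_zero.1 this.symm)
    · rw [hg, Units.val_one, sub_self, pow_one]

theorem card_filter_types :
    ((Finset.univ.filter fun μ : Nat.Partition n => ∀ a ∈ μ.parts, a ≤ p).filter
      fun μ => ¬ ∀ a ∈ μ.parts, a ≤ 1).card =
      (Finset.univ.filter fun μ : Nat.Partition n => ∀ a ∈ μ.parts, a ≤ p).card - 1 := by
  classical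
  set S := Finset.univ.filter fun μ : Nat.Partition n => ∀ a ∈ μ.parts, a ≤ p
  let one : Nat.Partition n := ⟨Multiset.replicate n 1, fun {i} hi => by rw [Multiset.eq_of_mem_replicate hi]; norm_num,
    by rw [Multiset.sum_replicate]; simp⟩
  have huniq : ∀ μ : Nat.Partition n, (∀ a ∈ μ.parts, a ≤ 1) ↔ μ = one := fun μ => by
    refine ⟨fun h => Nat.Partition.ext ?_, fun h a ha => ?_⟩
    · have e : μ.parts = Multiset.replicate (Multiset.card μ.parts) 1 :=
        Multiset.eq_replicate_card.2 fun a ha => le_antisymm (h a ha) (μ.parts_pos ha)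
      have hs := μ.parts_sum
      rw [e, Multiset.sum_replicate, smul_eq_mul, mul_one] at hs
      rw [e, hs]
    · subst h
      rw [Multiset.eq_of_mem_replicate ha]
  have hone : one ∈ S := Finset.mem_filter.2 ⟨Finset.mem_univ _, fun a ha =>
    ((huniq one).2 rfl a ha).trans (Fact.out : p.Prime).one_le⟩
  rw [show (S.filter fun μ => ¬ ∀ a ∈ μ.parts, a ≤ 1) = S.erase one by
    ext μ
    simp only [Finset.mem_filter, Finset.mem_erase, huniq, and_comm]]
  exact Finset.card_erase_of_mem hone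

/-- The classes of elements of order `p`. -/
theorem card_order_p_classes {H : Type*} [Group H] (ι : H →* GL (Fin n) F) (hinj : Function.Injective ι)
    (hconj : ∀ a b, IsConj (ι a) (ι b) → IsConj a b) (hreal : ∀ μ, ∃ h, UniType (ι h) μ) :
    Nat.card {C : ConjClasses H // ∃ g : H, ConjClasses.mk g = C ∧ orderOf g = p} =
      (Finset.univ.filter fun μ : Nat.Partition n => ∀ a ∈ μ.parts, a ≤ p).card - 1 := by
  classical
  rw [← card_filter_types p]
  refine card_classes ι hconj _ _ (fun h => ?_) fun μ _ => hreal μ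
  rw [← orderOf_injective ι hinj h, orderOf_eq_iff_type p]
  simp only [Finset.mem_filter, Finset.mem_univ, true_and]

end CfsgLib.NilType
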