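import Cfsg.Agent.NilType.Gen
import Cfsg.Agent.S0752
import Mathlib.LinearAlgebra.BilinearForm.Orthogonal
import Mathlib.LinearAlgebra.Matrix.BilinearForm

/-!
Parity of the multiplicities of block sizes of unipotent isometries.
-/

set_option autoImplicit false

open Module

namespace CfsgLib.NilType

variable {F : Type*} [Field F] {ι : Type*} [Fintype ι] [DecidableEq ι]

theorem count_identity (s : Multiset ℕ) (i : ℕ) :
    (s.map fun a => a - i).sum + (s.map fun a => a - (i + 2)).sum =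
      2 * (s.map fun a => a - (i + 1)).sum + s.count (i + 1) := by
  induction s using Multiset.induction with
  | empty => simp
  | cons a s ih =>
    simp only [Multiset.map_cons, Multiset.sum_cons, Multiset.count_cons]
    split <;> omega

theorem finrank_ker_inf_range (M : End F (ι → F)) (i : ℕ) :
    finrank F ↥(LinearMap.ker M ⊓ LinearMap.range (M ^ i)) + finrank F (LinearMap.range (M ^ (i + 1))) =
      finrank F (LinearMap.range (M ^ i)) := by
  have h := LinearMap.finrank_range_add_finrank_ker (M.domRestrict (LinearMap.range (M ^ i)))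
  rw [LinearMap.range_domRestrict, ← LinearMap.range_comp, ← Module.End.mul_eq_comp, ← pow_succ'] at h
  rw [LinearMap.ker_domRestrict, ← Submodule.finrank_map_subtype_eq, Submodule.map_comap_subtype, inf_comm] at h
  omega

/-- An alternating form with non-degenerate restriction to a complement of its radical has even corank. -/
theorem even_sub_radical {W : Type*} [AddCommGroup W] [Module F W] [FiniteDimensional F W]
    (B : LinearMap.BilinForm F W) (hB : B.IsAlt) (R : Submodule F W) (hR : ∀ x, x ∈ R ↔ ∀ y, B x y = 0) :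
    Even (finrank F W - finrank F R) := by
  obtain ⟨C, hC⟩ := R.exists_isCompl
  have halt : (B.restrict C).IsAlt := fun x => hB x
  obtain ⟨m, k, b, -, -, -, hrad⟩ := Cfsg.Agent.S0752.result (B.restrict C) halt
  have hk : k = 0 := by
    rcases Nat.eq_zero_or_pos k with h | h
    · exact h
    · exfalso
      set x := b (Sum.inr (⟨0, h⟩ : Fin k))
      have hx : (x : W) ∈ R := by
        rw [hR]
        intro y
        have hy : y ∈ R ⊔ C := by rw [hC.sup_eq_top]; trivial
        obtain ⟨y1, hy1, y2, hy2, rfl⟩ := Submodule.mem_sup.1 hy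
        have h1 : B (x : W) y1 = 0 := by
          rw [← LinearMap.IsAlt.neg hB, (hR y1).1 hy1, neg_zero]
        rw [map_add, h1, zero_add]
        exact hrad ⟨0, h⟩ ⟨y2, hy2⟩
      exact b.ne_zero _ (Subtype.ext (Submodule.disjoint_def.1 hC.disjoint x hx x.2))
  subst hk
  have h1 := Submodule.finrank_add_eq_of_isCompl hC
  have h2 := finrank_eq_card_basis b
  simp at h2
  exact ⟨m, by omega⟩

variable {G u : Matrix ι ι F} (hG : IsUnit G.det) (hu : Matrix.transpose u * G * u = G)

include hu in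
/-- Moving a power of `u - 1` across the form. -/
theorem transpose_pow_mul (hu' : IsUnit u.det) (i : ℕ) :
    Matrix.transpose ((u - 1) ^ i) * G = G * ((-u⁻¹) ^ i * (u - 1) ^ i) := by
  have h1 : Matrix.transpose u * G = G * u⁻¹ := by
    have := congrArg (fun M => M * u⁻¹) hu
    simpa only [Matrix.mul_nonsing_inv_cancel_right _ _ hu'] using this
  have h2 : Matrix.transpose (u - 1) * G = G * (-u⁻¹ * (u - 1)) := by
    rw [Matrix.transpose_sub, Matrix.transpose_one, Matrix.sub_mul, Matrix.one_mul, h1, Matrix.neg_mul, Matrix.mul_sub,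
      Matrix.nonsing_inv_mul _ hu', Matrix.mul_one, neg_sub, Matrix.mul_sub, Matrix.mul_one]
  have hc : Commute (-u⁻¹) (u - 1) := by
    refine Commute.neg_left (Commute.sub_right ?_ (Commute.one_right _))
    show _ = _
    rw [Matrix.nonsing_inv_mul _ hu', Matrix.mul_nonsing_inv _ hu']
  rw [Matrix.transpose_pow, ← hc.mul_pow]
  exact (show SemiconjBy G (-u⁻¹ * (u - 1)) (Matrix.transpose (u - 1)) from h2.symm).pow_right i |>.eq.symm

theorem commute_inv_pow (hu' : IsUnit u.det) (i j : ℕ) : Commute ((-u⁻¹) ^ i) ((u - 1) ^ j) := by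
  refine (Commute.neg_left (Commute.sub_right ?_ (Commute.one_right _))).pow_pow i j
  show _ = _
  rw [Matrix.nonsing_inv_mul _ hu', Matrix.mul_nonsing_inv _ hu']

include hu in
/-- A range is orthogonal to the corresponding kernel. -/
theorem range_orth_ker (hu' : IsUnit u.det) (i : ℕ) {x y : ι → F} (hy : ((u - 1) ^ i).mulVec y = 0) :
    ((u - 1) ^ i).mulVec x ⬝ᵥ G.mulVec y = 0 := by
  rw [← Matrix.vecMul_transpose, ← Matrix.dotProduct_mulVec, Matrix.mulVec_mulVec, transpose_pow_mul hu hu',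
    ← Matrix.mulVec_mulVec, ← Matrix.mulVec_mulVec, hy, Matrix.mulVec_zero, Matrix.mulVec_zero, dotProduct_zero]

include hG hu in
/-- If the form of `(i + 1)`-blocks is alternating, their number is even. -/
theorem even_count (hr : ∀ x y : ι → F, x ⬝ᵥ G.mulVec y = 0 → y ⬝ᵥ G.mulVec x = 0) (hnil : IsNilpotent (u - 1))
    {s : Multiset ℕ} (hs : HasSizes (u - 1) s) (i : ℕ)
    (halt : ∀ x : ι → F, ((u - 1) ^ (i + 1)).mulVec x = 0 → ((u - 1) ^ i).mulVec x ⬝ᵥ G.mulVec x = 0) :
    Even (s.count (i + 1)) := by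
  have hu' : IsUnit u.det := by
    rw [← Matrix.isUnit_iff_isUnit_det, show u = 1 + (u - 1) by rw [add_sub_cancel]]
    exact hnil.isUnit_one_add
  let M : End F (ι → F) := Matrix.toLinAlgEquiv' (u - 1)
  have hMpow : ∀ j x, (M ^ j) x = ((u - 1) ^ j).mulVec x := fun j x => by
    show (Matrix.toLinAlgEquiv' (u - 1) ^ j) x = _
    rw [← map_pow, Matrix.toLinAlgEquiv'_apply]
  have hrk : ∀ j, finrank F (LinearMap.range (M ^ j)) = (s.map fun a => a - j).sum := fun j =>
    (rank_pow_eq' _ j).symm.trans (hs j)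
  let W := LinearMap.ker (M ^ (i + 1))
  have hW : ∀ w : W, ((u - 1) ^ (i + 1)).mulVec (w : ι → F) = 0 := fun w => by rw [← hMpow]; exact w.2
  let B : LinearMap.BilinForm F W := ((Matrix.toBilin' G).comp (M ^ i) LinearMap.id).restrict W
  have hB : ∀ x y : W, B x y = ((u - 1) ^ i).mulVec (x : ι → F) ⬝ᵥ G.mulVec (y : ι → F) := fun x y => by
    show Matrix.toBilin' G ((M ^ i) (x : ι → F)) (y : ι → F) = _
    rw [Matrix.toBilin'_apply', hMpow]
  have hBalt : B.IsAlt := fun x => by rw [hB]; exact halt _ (hW x)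
  have hperp : ∀ z : ι → F, (∀ y ∈ W, z ⬝ᵥ G.mulVec y = 0) → z ∈ LinearMap.range (M ^ (i + 1)) := by
    let BG := Matrix.toBilin' G
    have hnd : BG.Nondegenerate := LinearMap.BilinForm.nondegenerate_toBilin'_of_det_ne_zero' G hG.ne_zero
    have hrefl : LinearMap.IsRefl BG := fun x y h => by
      rw [Matrix.toBilin'_apply'] at h ⊢; exact hr x y h
    have heq : LinearMap.range (M ^ (i + 1)) = BG.orthogonal W := by
      refine Submodule.eq_of_le_of_finrank_eq ?_ ?_
      · rintro _ ⟨x, rfl⟩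
        rw [LinearMap.BilinForm.mem_orthogonal_iff]
        intro y hy
        refine hrefl _ _ ?_
        rw [Matrix.toBilin'_apply', hMpow]
        exact range_orth_ker hu hu' _ (hW ⟨y, hy⟩)
      · rw [LinearMap.BilinForm.finrank_orthogonal hnd W]
        have := LinearMap.finrank_range_add_finrank_ker (M ^ (i + 1))
        show _ = _ - finrank F (LinearMap.ker (M ^ (i + 1)))
        omega
    intro z hz
    rw [heq, LinearMap.BilinForm.mem_orthogonal_iff]
    intro y hy
    refine hrefl _ _ ?_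
    rw [Matrix.toBilin'_apply']
    exact hz y hy
  let φ : W →ₗ[F] (ι → F) := (M ^ i).domRestrict W
  let R : Submodule F W := (LinearMap.range (M ^ (i + 1))).comap φ
  have hR : ∀ x, x ∈ R ↔ ∀ y, B x y = 0 := fun x => by
    refine ⟨fun h y => ?_, fun h => hperp _ fun y hy => ?_⟩
    · obtain ⟨z, hz⟩ := LinearMap.mem_range.1 (show φ x ∈ LinearMap.range (M ^ (i + 1)) from h)
      rw [hB, ← hMpow i]
      show φ x ⬝ᵥ _ = 0
      rw [← hz, hMpow]
      exact range_orth_ker hu hu' _ (hW y)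
    · show ((M ^ i) (x : ι → F)) ⬝ᵥ G.mulVec y = 0
      rw [hMpow, ← hB x ⟨y, hy⟩, h]
  have hev := even_sub_radical B hBalt R hR
  have hrange : (R.map φ) = LinearMap.ker M ⊓ LinearMap.range (M ^ (i + 1)) := by
    refine le_antisymm ?_ ?_
    · rintro _ ⟨x, hx, rfl⟩
      refine ⟨?_, hx⟩
      rw [SetLike.mem_coe, LinearMap.mem_ker]
      show M ((M ^ i) (x : ι → F)) = 0
      rw [← Module.End.mul_apply, ← pow_succ']
      exact x.2
    · rintro _ ⟨h1, z, rfl⟩
      have hmem : M z ∈ W := by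
        rw [SetLike.mem_coe, LinearMap.mem_ker, pow_succ, Module.End.mul_apply] at h1
        show (M ^ (i + 1)) (M z) = 0
        rw [pow_succ', Module.End.mul_apply]
        exact h1
      have he : φ ⟨M z, hmem⟩ = (M ^ (i + 1)) z := by
        show (M ^ i) (M z) = _
        rw [pow_succ, Module.End.mul_apply]
      exact ⟨⟨M z, hmem⟩, show φ _ ∈ LinearMap.range _ from ⟨z, he.symm⟩, he⟩
  have hle : LinearMap.ker φ ≤ R := fun x hx => by
    show φ x ∈ LinearMap.range (M ^ (i + 1))
    rw [LinearMap.mem_ker.1 hx]; exact zero_mem _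
  have hφ := LinearMap.finrank_range_add_finrank_ker (K := F) (V := R) (φ.domRestrict R)
  rw [LinearMap.range_domRestrict, hrange, LinearMap.ker_domRestrict] at hφ
  have hkφ : finrank F ↥((LinearMap.ker φ).comap R.subtype) = finrank F (LinearMap.ker (M ^ i)) := by
    rw [LinearEquiv.finrank_eq (Submodule.comapSubtypeEquivOfLe hle), LinearMap.ker_domRestrict,
      LinearEquiv.finrank_eq (Submodule.comapSubtypeEquivOfLe (fun x hx => by
        show (M ^ (i + 1)) x = 0
        rw [pow_succ', Module.End.mul_apply, LinearMap.mem_ker.1 hx, map_zero] :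
        LinearMap.ker (M ^ i) ≤ W))]
  rw [hkφ] at hφ
  have d1 := finrank_ker_inf_range M (i + 1)
  have d2 := LinearMap.finrank_range_add_finrank_ker (M ^ i)
  have d3 := LinearMap.finrank_range_add_finrank_ker (M ^ (i + 1))
  have c := count_identity s i
  rw [hrk, hrk] at d1
  rw [hrk] at d2 d3
  have key : finrank F W - finrank F R = s.count (i + 1) := by
    show finrank F (LinearMap.ker (M ^ (i + 1))) - _ = _
    have : i + 1 + 1 = i + 2 := rfl
    rw [this] at d1
    omega
  rwa [key] at hev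

include hG hu in
/-- Odd sizes occur evenly often for alternating forms. -/
theorem even_count_odd_of_alt (ha : ∀ x : ι → F, x ⬝ᵥ G.mulVec x = 0) (hnil : IsNilpotent (u - 1))
    {s : Multiset ℕ} (hs : HasSizes (u - 1) s) {j : ℕ} (hj : Odd j) : Even (s.count j) := by
  obtain ⟨l, rfl⟩ := hj
  have hr : ∀ x y : ι → F, x ⬝ᵥ G.mulVec y = 0 → y ⬝ᵥ G.mulVec x = 0 := fun x y h => by
    have := ha (x + y)
    rw [Matrix.mulVec_add, add_dotProduct, dotProduct_add, dotProduct_add, ha, ha, h] at this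
    simpa using this
  have hu' : IsUnit u.det := by
    rw [← Matrix.isUnit_iff_isUnit_det, show u = 1 + (u - 1) by rw [add_sub_cancel]]
    exact hnil.isUnit_one_add
  refine even_count hG hu hr hnil hs (2 * l) fun x hx => ?_
  obtain ⟨v, hv⟩ : ∃ v, v = ((u - 1) ^ l).mulVec x := ⟨_, rfl⟩
  have e1 : ((u - 1) ^ (2 * l)).mulVec x ⬝ᵥ G.mulVec x = v ⬝ᵥ G.mulVec (((-u⁻¹) ^ l).mulVec v) := by
    rw [two_mul, pow_add, ← Matrix.mulVec_mulVec, ← hv, ← Matrix.vecMul_transpose, ← Matrix.dotProduct_mulVec,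
      Matrix.mulVec_mulVec, transpose_pow_mul hu hu', ← Matrix.mulVec_mulVec, ← Matrix.mulVec_mulVec, ← hv]
  have key : ∀ k : ℕ, ∀ y : ι → F, y = ((-u⁻¹) ^ k).mulVec v → v ⬝ᵥ G.mulVec y = 0 := by
    intro k
    induction k with
    | zero => intro y hy; rw [hy, pow_zero, Matrix.one_mulVec]; exact ha v
    | succ k ih =>
      intro y hy
      obtain ⟨w, hw⟩ : ∃ w, w = ((-u⁻¹) ^ k).mulVec v := ⟨_, rfl⟩
      have hy' : y = -w + (u⁻¹ * (u - 1)).mulVec w := by
        rw [hy, pow_succ', ← Matrix.mulVec_mulVec, ← hw, Matrix.mul_sub, Matrix.nonsing_inv_mul _ hu', Matrix.mul_one,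
          Matrix.sub_mulVec, Matrix.one_mulVec, Matrix.neg_mulVec]
        abel
      have hc : Commute ((u - 1) ^ l) ((-u⁻¹) ^ k) := (commute_inv_pow hu' k l).symm
      have hc' : Commute u⁻¹ (u - 1) := by
        refine Commute.sub_right ?_ (Commute.one_right _)
        show _ = _
        rw [Matrix.nonsing_inv_mul _ hu', Matrix.mul_nonsing_inv _ hu']
      have hz : (u⁻¹ * (u - 1)).mulVec w = ((u - 1) ^ (l + 1)).mulVec ((u⁻¹ * (-u⁻¹) ^ k).mulVec x) := by
        rw [hw, hv, Matrix.mulVec_mulVec, Matrix.mulVec_mulVec, Matrix.mulVec_mulVec]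
        congr 1
        rw [← Matrix.mul_assoc, ← (hc'.pow_right (l + 1)).eq, Matrix.mul_assoc, Matrix.mul_assoc,
          Matrix.mul_assoc]
        congr 1
        rw [pow_succ', Matrix.mul_assoc, hc.eq]
      rw [hy', Matrix.mulVec_add, Matrix.mulVec_neg, dotProduct_add, dotProduct_neg, ih w hw, neg_zero, zero_add, hz]
      refine hr _ _ ?_
      rw [hv, ← Matrix.vecMul_transpose, ← Matrix.dotProduct_mulVec, Matrix.mulVec_mulVec,
        transpose_pow_mul hu hu', ← Matrix.mulVec_mulVec _ G, Matrix.mulVec_mulVec x]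
      rw [Matrix.mul_assoc ((-u⁻¹) ^ (l + 1)), ← pow_add, show l + 1 + l = 2 * l + 1 by omega,
        ← Matrix.mulVec_mulVec x ((-u⁻¹) ^ (l + 1)), hx, Matrix.mulVec_zero, Matrix.mulVec_zero, dotProduct_zero]
  rw [e1]
  exact key l _ rfl

include hG hu in
/-- Even sizes occur evenly often for symmetric forms, `2 ≠ 0`. -/
theorem even_count_even_of_symm (h2 : (2 : F) ≠ 0) (hsym : G.transpose = G) (hnil : IsNilpotent (u - 1))
    {s : Multiset ℕ} (hs : HasSizes (u - 1) s) {j : ℕ} (hj : Even j) (hpos : 0 < j) : Even (s.count j) := by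
  obtain ⟨i, rfl⟩ : ∃ i, j = i + 1 := ⟨j - 1, by omega⟩
  have hi : Odd i := Nat.not_even_iff_odd.1 fun h => Nat.even_add_one.1 hj h
  have hswap : ∀ x y : ι → F, x ⬝ᵥ G.mulVec y = y ⬝ᵥ G.mulVec x := fun x y => by
    rw [Matrix.dotProduct_mulVec, ← Matrix.mulVec_transpose, hsym, dotProduct_comm]
  have hu' : IsUnit u.det := by
    rw [← Matrix.isUnit_iff_isUnit_det, show u = 1 + (u - 1) by rw [add_sub_cancel]]
    exact hnil.isUnit_one_add
  refine even_count hG hu (fun x y h => (hswap y x).trans h) hnil hs i fun x hx => ?_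
  have key : ∀ k : ℕ, x ⬝ᵥ G.mulVec (((-u⁻¹) ^ k).mulVec (((u - 1) ^ i).mulVec x)) =
      (-1 : F) ^ k * (x ⬝ᵥ G.mulVec (((u - 1) ^ i).mulVec x)) := by
    intro k
    induction k with
    | zero => simp
    | succ k ih =>
      obtain ⟨w, hw⟩ : ∃ w, w = ((-u⁻¹) ^ k).mulVec (((u - 1) ^ i).mulVec x) := ⟨_, rfl⟩
      have hy' : ((-u⁻¹) ^ (k + 1)).mulVec (((u - 1) ^ i).mulVec x) = -w + (u⁻¹ * (u - 1)).mulVec w := by
        rw [pow_succ', ← Matrix.mulVec_mulVec, ← hw, Matrix.mul_sub, Matrix.nonsing_inv_mul _ hu', Matrix.mul_one,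
          Matrix.sub_mulVec, Matrix.one_mulVec, Matrix.neg_mulVec]
        abel
      have hc : Commute (u - 1) ((-u⁻¹) ^ k) := by
        have := (commute_inv_pow (u := u) hu' k 1).symm
        rwa [pow_one] at this
      have hz : (u⁻¹ * (u - 1)).mulVec w = 0 := by
        rw [hw, Matrix.mulVec_mulVec, Matrix.mulVec_mulVec, Matrix.mul_assoc u⁻¹, hc.eq,
          Matrix.mul_assoc, Matrix.mul_assoc, ← pow_succ', ← Matrix.mul_assoc, ← Matrix.mulVec_mulVec, hx,
          Matrix.mulVec_zero]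
      rw [hy', hz, add_zero, Matrix.mulVec_neg, dotProduct_neg, hw, ih, pow_succ]
      ring
  have e1 : ((u - 1) ^ i).mulVec x ⬝ᵥ G.mulVec x = x ⬝ᵥ G.mulVec (((-u⁻¹) ^ i).mulVec (((u - 1) ^ i).mulVec x)) := by
    conv_lhs => rw [← Matrix.vecMul_transpose, ← Matrix.dotProduct_mulVec, Matrix.mulVec_mulVec, transpose_pow_mul hu hu',
      ← Matrix.mulVec_mulVec, ← Matrix.mulVec_mulVec]
  rw [key, hi.neg_one_pow, ← hswap (((u - 1) ^ i).mulVec x)] at e1
  exact (mul_eq_zero.1 (show (2 : F) * _ = 0 by linear_combination e1)).resolve_left h2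

end CfsgLib.NilType
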