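import Cfsg.Agent.NilType.RegQTwo
import Cfsg.Agent.NilType.Parity
import Cfsg.Agent.Forms.SympEmbed
import Cfsg.Agent.Forms.Matrix

/-!
Occurring Jordan types: assembling blocks and moving to the standard forms.
-/

set_option autoImplicit false

open Matrix Module QuadraticMap

namespace CfsgLib.NilType

theorem multiset_realize (P : Multiset ℕ → Prop) (h0 : P 0) (hadd : ∀ s t, P s → P t → P (s + t))
    (single : ℕ → Prop) (hsingle : ∀ a, 1 ≤ a → single a → P {a}) (hpair : ∀ a, 1 ≤ a → P {a, a})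
    (s : Multiset ℕ) (hpos : ∀ a ∈ s, 1 ≤ a) (heven : ∀ a, 1 ≤ a → ¬ single a → Even (s.count a)) : P s := by
  classical
  induction hc : Multiset.card s using Nat.strong_induction_on generalizing s with
  | _ k ih =>
    subst hc
    rcases Multiset.empty_or_exists_mem s with rfl | ⟨a, ha⟩
    · exact h0
    obtain ⟨t, rfl⟩ := Multiset.exists_cons_of_mem ha
    have ha1 : 1 ≤ a := hpos a ha
    by_cases hs : single a
    · rw [← Multiset.singleton_add]
      refine hadd _ _ (hsingle a ha1 hs) (ih _ (by simp) t (fun b hb => hpos b (Multiset.mem_cons_of_mem hb)) ?_ rfl)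
      intro b hb hnb
      have := heven b hb hnb
      rwa [Multiset.count_cons_of_ne (fun h : b = a => hnb (h ▸ hs))] at this
    · have h2 := heven a ha1 hs
      rw [Multiset.count_cons_self] at h2
      have ht : a ∈ t := Multiset.one_le_count_iff_mem.1 (by
        obtain ⟨r, hr⟩ := h2; omega)
      obtain ⟨t', rfl⟩ := Multiset.exists_cons_of_mem ht
      rw [show a ::ₘ a ::ₘ t' = {a, a} + t' by simp]
      refine hadd _ _ (hpair a ha1) (ih _ (by simp) t'
        (fun b hb => hpos b (Multiset.mem_cons_of_mem (Multiset.mem_cons_of_mem hb))) ?_ rfl)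
      intro b hb hnb
      have h := heven b hb hnb
      by_cases hba : b = a
      · subst hba
        rw [Multiset.count_cons_self, Multiset.count_cons_self] at h
        obtain ⟨r, hr⟩ := h
        exact ⟨r - 1, by omega⟩
      · rwa [Multiset.count_cons_of_ne hba, Multiset.count_cons_of_ne hba] at h

variable {F : Type*} [Field F]

theorem count_eq_filter {t : ℕ} (d : Fin t → ℕ) (j : ℕ) :
    (Finset.univ.filter fun k : Fin t => d k = j).card = (Finset.univ.val.map d).count j := by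
  rw [Multiset.count_map]
  show _ = (Finset.univ.filter fun k : Fin t => j = d k).card
  exact congrArg Finset.card (Finset.filter_congr fun k _ => eq_comm)

theorem RealSp.of_count (s : Multiset ℕ) (hpos : ∀ a ∈ s, 1 ≤ a) (h : ∀ j, Odd j → Even (s.count j)) : RealSp F s :=
  multiset_realize _ realSp_zero (fun _ _ => RealSp.add) Even (fun _ h1 h2 => realSp_even h2 h1)
    (fun _ h1 => realSp_pair h1) s hpos fun a _ ha => h a (Nat.not_even_iff_odd.1 ha)

theorem RealQ.of_count_odd (h2 : (2 : F) ≠ 0) (s : Multiset ℕ) (hpos : ∀ a ∈ s, 1 ≤ a)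
    (h : ∀ j, Even j → 0 < j → Even (s.count j)) : RealQ F s :=
  multiset_realize _ realQ_zero (fun _ _ => RealQ.add) Odd (fun _ _ h1 => realQ_odd h2 h1)
    (fun _ h1 => realQ_pair h1) s hpos fun a h1 ha => h a (Nat.not_odd_iff_even.1 ha) h1

theorem RealQ.of_count_two [CharP F 2] (s : Multiset ℕ) (hpos : ∀ a ∈ s, 1 ≤ a) (h : ∀ j, Odd j → Even (s.count j)) :
    RealQ F s :=
  multiset_realize _ realQ_zero (fun _ _ => RealQ.add) Even (fun _ h1 h2 => realQ_even h2 h1)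
    (fun _ h1 => realQ_pair h1) s hpos fun a _ ha => h a (Nat.not_even_iff_odd.1 ha)

/-- Symplectic isometries of every realisable type. -/
theorem exists_symp {s : Multiset ℕ} {m : ℕ} (h : RealSp F s) (hs : s.sum = 2 * m) :
    ∃ A ∈ Matrix.symplecticGroup (Fin m) F, IsNilpotent (A - 1) ∧ HasSizes (A - 1) s := by
  obtain ⟨ι, _, _, G, u, hG, ha, hu, h1, h2⟩ := h
  have halt : (Matrix.toBilin' G).IsAlt := fun x => (Matrix.toBilin'_apply' G x x).trans (ha x)
  have hsep : (Matrix.toBilin' G).SeparatingLeft :=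
    (LinearMap.BilinForm.nondegenerate_toBilin'_of_det_ne_zero' G hG.ne_zero).1
  obtain ⟨g, hg⟩ := CfsgLib.Forms.exists_symp_coord (n := m)
    (by rw [Module.finrank_fintype_fun_eq_card, h2.card_eq, hs]) (Matrix.toBilin' G) halt hsep
  obtain ⟨e⟩ : Nonempty (ι ≃ Fin m ⊕ Fin m) := ⟨Fintype.equivOfCardEq (by rw [h2.card_eq, hs]; simp [two_mul])⟩
  obtain ⟨h3, h4⟩ := reindex_sizes e h1 h2
  let c : (Fin m ⊕ Fin m → F) ≃ₗ[F] (Fin m ⊕ Fin m → F) := (LinearEquiv.funCongrLeft F F e).trans g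
  have hc : ∀ v, LinearMap.toMatrix' (c : (Fin m ⊕ Fin m → F) →ₗ[F] (Fin m ⊕ Fin m → F)) *ᵥ v = c v := fun v =>
    LinearMap.toMatrix'_mulVec _ v
  obtain ⟨C, hC⟩ : ∃ C, C = LinearMap.toMatrix' (c : (Fin m ⊕ Fin m → F) →ₗ[F] (Fin m ⊕ Fin m → F)) := ⟨_, rfl⟩
  have hCu : IsUnit C := by
    rw [← Matrix.mulVec_injective_iff_isUnit, hC]
    exact fun x y hxy => c.injective (by rw [← hc, ← hc]; exact hxy)
  obtain ⟨U, hU⟩ := hCu
  obtain ⟨B, hB⟩ : ∃ B, B = Matrix.reindex e e u := ⟨_, rfl⟩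
  obtain ⟨A, hA⟩ : ∃ A, A = U.1 * B * (↑U⁻¹ : Matrix (Fin m ⊕ Fin m) (Fin m ⊕ Fin m) F) := ⟨_, rfl⟩
  have hBv : ∀ v, (B *ᵥ v) ∘ e = u *ᵥ (v ∘ e) := fun v => by
    rw [hB, Matrix.reindex_apply, Matrix.submatrix_mulVec_equiv, Equiv.symm_symm]
    ext i; simp
  have hconj : IsConj B A := ⟨U, by
    show U.1 * B = A * U.1
    rw [hA, mul_assoc, Units.inv_mul, mul_one]⟩
  refine ⟨A, CfsgLib.SpGeom.mem_of_form fun x y => ?_, ?_, fun k => ?_⟩
  · obtain ⟨x', rfl⟩ : ∃ x', U.1 *ᵥ x' = x := ⟨(↑U⁻¹ : Matrix (Fin m ⊕ Fin m) (Fin m ⊕ Fin m) F) *ᵥ x, by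
      rw [Matrix.mulVec_mulVec, Units.mul_inv, Matrix.one_mulVec]⟩
    obtain ⟨y', rfl⟩ : ∃ y', U.1 *ᵥ y' = y := ⟨(↑U⁻¹ : Matrix (Fin m ⊕ Fin m) (Fin m ⊕ Fin m) F) *ᵥ y, by
      rw [Matrix.mulVec_mulVec, Units.mul_inv, Matrix.one_mulVec]⟩
    have hform : ∀ a b, Cfsg.sympForm m F (U.1 *ᵥ a) (U.1 *ᵥ b) = (a ∘ e) ⬝ᵥ G *ᵥ (b ∘ e) := fun a b => by
      rw [hU, hC, hc, hc]
      exact (hg _ _).trans (Matrix.toBilin'_apply' G _ _)
    have hAv : ∀ v, A *ᵥ (U.1 *ᵥ v) = U.1 *ᵥ (B *ᵥ v) := fun v => by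
      rw [hA, Matrix.mulVec_mulVec, Matrix.mulVec_mulVec, mul_assoc _ _ U.1, Units.inv_mul, mul_one]
    rw [hAv, hAv, hform, hform, hBv, hBv, ← Matrix.vecMul_transpose, ← Matrix.dotProduct_mulVec, Matrix.mulVec_mulVec,
      Matrix.mulVec_mulVec, hu]
  · exact isNilpotent_of_isConj (isConj_sub_one_iff.1 hconj) (hB ▸ h3)
  · rw [← rank_pow_of_isConj (isConj_sub_one_iff.1 hconj) k, hB]; exact h4 k

/-- Orthogonal isometries of every realisable type. -/
theorem exists_orth {s : Multiset ℕ} {n : ℕ} (h : RealQ F s) (hs : s.sum = n) :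
    ∃ Q : QuadraticForm F (Fin n → F), (polarBilin Q).Nondegenerate ∧
      ∃ g : Cfsg.isometryGroup F ⇑Q,
        IsNilpotent ((g : GL (Fin n) F).1 - 1) ∧ HasSizes ((g : GL (Fin n) F).1 - 1) s := by
  obtain ⟨ι, _, _, K, u, hK, hu, h1, h2⟩ := h
  obtain ⟨e⟩ : Nonempty (ι ≃ Fin n) := ⟨Fintype.equivFinOfCardEq (by rw [h2.card_eq, hs])⟩
  obtain ⟨h3, h4⟩ := reindex_sizes e h1 h2
  let Q : QuadraticForm F (Fin n → F) := (Matrix.reindex e e K).toQuadraticMap'
  have hQv : ∀ v, Q v = v ⬝ᵥ Matrix.reindex e e K *ᵥ v := fun v => by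
    show (Matrix.toBilin' (Matrix.reindex e e K)) v v = _
    rw [Matrix.toBilin'_apply']
  refine ⟨Q, ?_, ?_⟩
  · have hp : polarBilin Q = Matrix.toBilin' (Matrix.reindex e e (K + Kᵀ)) := by
      refine LinearMap.ext fun x => LinearMap.ext fun y => ?_
      rw [polarBilin_apply_apply, Matrix.toBilin'_apply', polar, hQv, hQv, hQv]
      have ht : Matrix.reindex e e (K + Kᵀ) = Matrix.reindex e e K + (Matrix.reindex e e K)ᵀ := rfl
      rw [ht]
      simp only [Matrix.mulVec_add, Matrix.add_mulVec, dotProduct_add, add_dotProduct]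
      rw [Matrix.mulVec_transpose, dotProduct_comm x (Matrix.vecMul y _), ← Matrix.dotProduct_mulVec]
      ring
    rw [hp]
    refine LinearMap.BilinForm.nondegenerate_toBilin'_of_det_ne_zero' _ ?_
    rw [Matrix.det_reindex_self]
    exact hK.ne_zero
  · have hBu : IsUnit (Matrix.reindex e e u).det := by
      rw [← Matrix.isUnit_iff_isUnit_det]
      have := h3.isUnit_one_add
      rwa [add_sub_cancel] at this
    refine ⟨⟨Matrix.GeneralLinearGroup.mk'' _ hBu, CfsgLib.Forms.mem_isometryGroup.2 fun v => ?_⟩, h3, h4⟩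
    show Q (Matrix.reindex e e u *ᵥ v) = Q v
    have hr : ∀ (M : Matrix ι ι F) (w : Fin n → F), Matrix.reindex e e M *ᵥ w = (M *ᵥ (w ∘ e)) ∘ e.symm := fun M w => by
      rw [Matrix.reindex_apply, Matrix.submatrix_mulVec_equiv, Equiv.symm_symm]
    have hd : ∀ w : Fin n → F, w ⬝ᵥ Matrix.reindex e e K *ᵥ w = (w ∘ e) ⬝ᵥ K *ᵥ (w ∘ e) := fun w => by
      rw [hr, dotProduct_comp_equiv_symm]
    rw [hQv, hQv, hd, hd, hr, show (((u *ᵥ (v ∘ e)) ∘ e.symm) ∘ e) = u *ᵥ (v ∘ e) by ext; simp, hu]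

end CfsgLib.NilType
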