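import Cfsg.Agent.NilType.Realize

/-!
A single block for a quadratic form in characteristic two.
-/

set_option autoImplicit false

open Matrix Module

namespace CfsgLib.NilType

variable {F : Type*} [Field F]

theorem realQ_even [CharP F 2] {a : ℕ} (ha : Even a) (hpos : 1 ≤ a) : RealQ F {a} := by
  classical
  obtain ⟨m, rfl⟩ := ha
  have hm : 1 ≤ m := by omega
  obtain ⟨S, hS⟩ : ∃ S, S = CfsgLib.GLOrders.shiftMat F m := ⟨_, rfl⟩
  have hSn : S ^ m = 0 := hS ▸ CfsgLib.GLOrders.shiftMat_pow_self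
  obtain ⟨A, hA⟩ : ∃ A, A = 1 + S := ⟨_, rfl⟩
  have hd : IsUnit Aᵀ.det := by
    rw [Matrix.det_transpose, ← Matrix.isUnit_iff_isUnit_det, hA]
    exact IsNilpotent.isUnit_one_add ⟨m, hSn⟩
  obtain ⟨A', hA'⟩ : ∃ A', A' = Aᵀ⁻¹ := ⟨_, rfl⟩
  have e1 : Aᵀ * A' = 1 := hA' ▸ Matrix.mul_nonsing_inv _ hd
  have e3 : A' * Aᵀ = 1 := hA' ▸ Matrix.nonsing_inv_mul _ hd
  let i0 : Fin m := ⟨0, hm⟩
  let σ : Equiv.Perm (Fin m ⊕ Fin m) := Equiv.swap (Sum.inl i0) (Sum.inr i0)
  obtain ⟨u, hu⟩ : ∃ u, u = fromBlocks A 0 0 A' * σ.permMatrix F := ⟨_, rfl⟩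
  have huv : ∀ v, u *ᵥ v = fromBlocks A 0 0 A' *ᵥ (v ∘ σ) := fun v => by
    rw [hu, ← Matrix.mulVec_mulVec, Matrix.permMatrix_mulVec]
  have hiso : ∀ x, (u *ᵥ x) ⬝ᵥ (fromBlocks 0 1 0 0 : Matrix (Fin m ⊕ Fin m) (Fin m ⊕ Fin m) F) *ᵥ (u *ᵥ x) =
      x ⬝ᵥ (fromBlocks 0 1 0 0 : Matrix (Fin m ⊕ Fin m) (Fin m ⊕ Fin m) F) *ᵥ x := fun x => by
    rw [huv, hyp_diag e1, hyp_value]
    simp only [dotProduct, Function.comp_apply]
    refine Finset.sum_congr rfl fun i _ => ?_
    by_cases hi : i = i0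
    · subst hi; rw [Equiv.swap_apply_left, Equiv.swap_apply_right, mul_comm]
    · rw [Equiv.swap_apply_of_ne_of_ne (by simp [hi]) (by simp), Equiv.swap_apply_of_ne_of_ne (by simp) (by simp [hi])]
  -- coordinates
  have hSv : ∀ (x : Fin m → F) (i : Fin m), (S *ᵥ x) i = if h : 1 ≤ i.val then x ⟨i.val - 1, by omega⟩ else 0 := by
    intro x i
    rw [hS]
    have h := CfsgLib.GLOrders.shiftMat_mul (Matrix.replicateCol (Fin m) x) i i
    simpa [Matrix.mulVec, Matrix.mul_apply, dotProduct] using h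
  have hSt : ∀ (y : Fin m → F) (j : Fin m), (Sᵀ *ᵥ y) j = if h : j.val + 1 < m then y ⟨j.val + 1, h⟩ else 0 := by
    intro y j
    rw [Matrix.mulVec_transpose, hS]
    have h := CfsgLib.GLOrders.mul_shiftMat (Matrix.replicateRow (Fin m) y) j j
    simpa [Matrix.vecMul, Matrix.mul_apply, dotProduct] using h
  have hAv : ∀ (x : Fin m → F) (i : Fin m), (A *ᵥ x) i = x i + (S *ᵥ x) i := fun x i => by
    rw [hA, Matrix.add_mulVec, Matrix.one_mulVec]; rfl
  have hAtv : ∀ (y : Fin m → F) (i : Fin m), (Aᵀ *ᵥ y) i = y i + (Sᵀ *ᵥ y) i := fun y i => by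
    rw [hA, Matrix.transpose_add, Matrix.transpose_one, Matrix.add_mulVec, Matrix.one_mulVec]; rfl
  let e : Fin m → (Fin m ⊕ Fin m → F) := fun i => Pi.single (Sum.inl i) 1
  let f : Fin m → (Fin m ⊕ Fin m → F) := fun i => Pi.single (Sum.inr i) 1
  -- the kernel of a power of `N`
  let N : End F (Fin m ⊕ Fin m → F) := Matrix.toLinAlgEquiv' (u - 1)
  have hN : ∀ v, N v = u *ᵥ v - v := fun v => by
    show Matrix.toLinAlgEquiv' (u - 1) v = _
    rw [Matrix.toLinAlgEquiv'_apply, Matrix.sub_mulVec, Matrix.one_mulVec]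
  let K : Submodule F (Fin m ⊕ Fin m → F) := ⨆ k : ℕ, LinearMap.ker (N ^ k)
  have hmono : Monotone fun k : ℕ => LinearMap.ker (N ^ k) := fun k l hkl v hv => by
    rw [LinearMap.mem_ker] at hv ⊢
    obtain ⟨c, rfl⟩ := Nat.exists_eq_add_of_le hkl
    rw [add_comm, pow_add, Module.End.mul_apply, hv, map_zero]
  have hKmem : ∀ v, v ∈ K ↔ ∃ k, (N ^ k) v = 0 := fun v => by
    show v ∈ ⨆ k : ℕ, LinearMap.ker (N ^ k) ↔ _
    rw [Submodule.mem_iSup_of_directed _ hmono.directed_le]
    simp only [LinearMap.mem_ker]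
  have hback : ∀ v, N v ∈ K → v ∈ K := fun v hv => by
    obtain ⟨k, hk⟩ := (hKmem _).1 hv
    exact (hKmem _).2 ⟨k + 1, by rw [pow_succ, Module.End.mul_apply, hk]⟩
  have hinl : ∀ x : Fin m → F, fromBlocks A 0 0 A' *ᵥ Sum.elim x 0 = Sum.elim (A *ᵥ x) 0 := fun x => by
    rw [Matrix.fromBlocks_mulVec]; simp
  have hinr : ∀ y : Fin m → F, fromBlocks A 0 0 A' *ᵥ Sum.elim (0 : Fin m → F) y = Sum.elim (0 : Fin m → F) (A' *ᵥ y) := fun y => by
    rw [Matrix.fromBlocks_mulVec]; simp
  have hel : ∀ i, e i = Sum.elim (Pi.single i (1 : F)) (0 : Fin m → F) := fun i => by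
    ext (j | j) <;> simp [e, Pi.single_apply]
  have hfl : ∀ i, f i = Sum.elim (0 : Fin m → F) (Pi.single i (1 : F)) := fun i => by
    ext (j | j) <;> simp [f, Pi.single_apply]
  have hσe : ∀ (a : Fin m ⊕ Fin m), (Pi.single a (1 : F) : Fin m ⊕ Fin m → F) ∘ σ = Pi.single (σ a) 1 := fun a => by
    ext b
    have : σ b = a ↔ b = σ a := by
      constructor <;> rintro rfl <;> simp [σ, Equiv.swap_apply_self]
    simp [Pi.single_apply, this]
  have hσl : ∀ i, i ≠ i0 → σ (Sum.inl i) = Sum.inl i := fun i h => Equiv.swap_apply_of_ne_of_ne (by simp [h]) (by simp)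
  have hσr : ∀ i, i ≠ i0 → σ (Sum.inr i) = Sum.inr i := fun i h => Equiv.swap_apply_of_ne_of_ne (by simp) (by simp [h])
  have hAsingle : ∀ i : Fin m, A *ᵥ Pi.single i 1 =
      Pi.single i 1 + (if h : i.val + 1 < m then Pi.single ⟨i.val + 1, h⟩ 1 else 0) := fun i => by
    funext j
    rw [hAv, Pi.add_apply, hSv]
    congr 1
    by_cases h : i.val + 1 < m
    · rw [dif_pos h]
      by_cases hj : 1 ≤ j.val
      · rw [dif_pos hj, Pi.single_apply, Pi.single_apply]
        exact if_congr (by simp only [Fin.ext_iff]; omega) rfl rfl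
      · rw [dif_neg hj, Pi.single_eq_of_ne (fun hh => by simp [hh] at hj)]
    · rw [dif_neg h, Pi.zero_apply]
      by_cases hj : 1 ≤ j.val
      · rw [dif_pos hj, Pi.single_eq_of_ne (fun hh => by simp [Fin.ext_iff] at hh; omega)]
      · rw [dif_neg hj]
  have hNe : ∀ i, i ≠ i0 → N (e i) = if h : i.val + 1 < m then e ⟨i.val + 1, h⟩ else 0 := fun i hi => by
    rw [hN, huv, hσe, hσl i hi, show (Pi.single (Sum.inl i) 1 : Fin m ⊕ Fin m → F) = e i from rfl, hel, hinl, hAsingle]
    split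
    · rw [hel]; ext (j | j) <;> simp [e, Pi.single_apply]
    · ext (j | j) <;> simp [e, Pi.single_apply]
  have he : ∀ i : Fin m, i ≠ i0 → e i ∈ K := by
    suffices h : ∀ d, ∀ i : Fin m, m - i.val = d → i ≠ i0 → e i ∈ K from fun i hi => h _ i rfl hi
    intro d
    induction d using Nat.strong_induction_on with
    | _ d ih =>
      intro i hd' hi
      refine hback _ ?_
      rw [hNe i hi]
      split
      · rename_i h
        exact ih _ (by show m - (i.val + 1) < d; omega) _ rfl (fun hh => by simp [i0, Fin.ext_iff] at hh)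
      · exact zero_mem _
  have hnext : (if h : i0.val + 1 < m then e ⟨i0.val + 1, h⟩ else 0) ∈ K := by
    split
    · exact he _ (fun hh => by simp [i0] at hh)
    · exact zero_mem _
  have hA'0 : A' *ᵥ Pi.single i0 1 = Pi.single i0 1 := by
    have h : Aᵀ *ᵥ Pi.single i0 1 = Pi.single i0 1 := funext fun j => by
      rw [hAtv, hSt]
      split
      · rename_i h
        rw [Pi.single_eq_of_ne (show (⟨j.val + 1, h⟩ : Fin m) ≠ i0 from fun hh => by simp [i0] at hh), add_zero]
      · rw [add_zero]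
    conv_lhs => rw [← h, Matrix.mulVec_mulVec, e3, Matrix.one_mulVec]
  have hue0 : u *ᵥ e i0 = f i0 := by
    rw [huv, hσe, Equiv.swap_apply_left, show (Pi.single (Sum.inr i0) 1 : Fin m ⊕ Fin m → F) = f i0 from rfl, hfl, hinr,
      hA'0]
  have huf0 : u *ᵥ f i0 = e i0 + (if h : i0.val + 1 < m then e ⟨i0.val + 1, h⟩ else 0) := by
    rw [huv, hσe, Equiv.swap_apply_right, show (Pi.single (Sum.inl i0) 1 : Fin m ⊕ Fin m → F) = e i0 from rfl, hel,
      hinl, hAsingle]
    split
    · rw [hel]; ext (j | j) <;> simp [e, Pi.single_apply]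
    · ext (j | j) <;> simp [e, Pi.single_apply]
  have hg : e i0 + f i0 ∈ K := by
    refine hback _ ?_
    rw [hN, Matrix.mulVec_add, hue0, huf0]
    rwa [show f i0 + (e i0 + (if h : i0.val + 1 < m then e ⟨i0.val + 1, h⟩ else 0)) - (e i0 + f i0) =
      (if h : i0.val + 1 < m then e ⟨i0.val + 1, h⟩ else 0) by abel]
  have hf0 : f i0 ∈ K := by
    refine hback _ ?_
    rw [hN, huf0, show e i0 + (if h : i0.val + 1 < m then e ⟨i0.val + 1, h⟩ else 0) - f i0 =
      (e i0 + f i0) + (if h : i0.val + 1 < m then e ⟨i0.val + 1, h⟩ else 0) - (f i0 + f i0) by abel]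
    refine sub_mem (add_mem hg hnext) ?_
    have : f i0 + f i0 = (2 : F) • f i0 := (two_smul F _).symm
    rw [this, CharTwo.two_eq_zero, zero_smul]
    exact zero_mem _
  have hf : ∀ j : ℕ, ∀ hj : j < m, f ⟨j, hj⟩ ∈ K ∧ Sum.elim (0 : Fin m → F) (A' *ᵥ Pi.single ⟨j, hj⟩ 1) ∈ K := by
    intro j
    induction j with
    | zero =>
      intro hj
      refine ⟨hf0, ?_⟩
      show Sum.elim (0 : Fin m → F) (A' *ᵥ Pi.single i0 1) ∈ K
      rw [hA'0, ← hfl]; exact hf0
    | succ j ih =>
      intro hj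
      obtain ⟨-, h2⟩ := ih (by omega)
      have hSs : Sᵀ *ᵥ Pi.single ⟨j + 1, hj⟩ 1 = Pi.single ⟨j, by omega⟩ 1 := funext fun i => by
        rw [hSt]
        by_cases h : i.val + 1 < m
        · rw [dif_pos h, Pi.single_apply, Pi.single_apply]
          exact if_congr (by simp only [Fin.ext_iff]; omega) rfl rfl
        · rw [dif_neg h, Pi.single_eq_of_ne (fun hh => by simp [Fin.ext_iff] at hh; omega)]
      have key : A' *ᵥ Pi.single ⟨j + 1, hj⟩ 1 =
          Pi.single ⟨j + 1, hj⟩ 1 - A' *ᵥ Pi.single ⟨j, by omega⟩ 1 := by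
        have h := congrArg (fun M => M *ᵥ (Pi.single ⟨j + 1, hj⟩ 1 : Fin m → F)) e3
        simp only [Matrix.one_mulVec] at h
        rw [← Matrix.mulVec_mulVec, hA, Matrix.transpose_add, Matrix.transpose_one, Matrix.add_mulVec,
          Matrix.one_mulVec, hSs, Matrix.mulVec_add] at h
        exact eq_sub_of_add_eq h
      have hmem : f ⟨j + 1, hj⟩ ∈ K := by
        refine hback _ ?_
        rw [hN, huv, hσe, hσr _ (fun hh => by simp [i0, Fin.ext_iff] at hh),
          show (Pi.single (Sum.inr (⟨j + 1, hj⟩ : Fin m)) 1 : Fin m ⊕ Fin m → F) = f ⟨j + 1, hj⟩ from rfl, hfl, hinr,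
          key, ← Sum.elim_sub_sub, sub_zero]
        rw [show Pi.single ⟨j + 1, hj⟩ (1 : F) - A' *ᵥ Pi.single ⟨j, by omega⟩ 1 - Pi.single ⟨j + 1, hj⟩ 1 =
          -(A' *ᵥ Pi.single ⟨j, by omega⟩ 1) by abel]
        have := neg_mem h2
        rwa [← Sum.elim_neg_neg, neg_zero] at this
      refine ⟨hmem, ?_⟩
      rw [key]
      have := sub_mem hmem h2
      rwa [hfl, ← Sum.elim_sub_sub, sub_zero] at this
  have hall : ∀ v, v ∈ K := fun v => by
    rw [pi_eq_sum_univ' v]
    refine sum_mem fun a _ => Submodule.smul_mem _ _ ?_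
    rcases a with i | i
    · by_cases hi : i = i0
      · subst hi
        have := sub_mem hg hf0
        rwa [add_sub_cancel_right] at this
      · exact he i hi
    · exact (hf i.val i.isLt).1
  have hnil : IsNilpotent (u - 1) := by
    choose k hk using fun a : Fin m ⊕ Fin m => (hKmem _).1 (hall (Pi.single a (1 : F)))
    refine ⟨Finset.univ.sup k, Matrix.toLinAlgEquiv'.injective ?_⟩
    rw [map_pow, map_zero]
    refine (Pi.basisFun F _).ext fun a => ?_
    rw [Pi.basisFun_apply, LinearMap.zero_apply]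
    obtain ⟨c, hc⟩ := Nat.exists_eq_add_of_le (Finset.le_sup (f := k) (Finset.mem_univ a))
    show (N ^ Finset.univ.sup k) (Pi.single a 1) = 0
    rw [hc, add_comm, pow_add, Module.End.mul_apply, hk a, map_zero]
  -- the kernel of `N` is a line
  let last : Fin m := ⟨m - 1, by omega⟩
  let w : Fin m ⊕ Fin m → F := if m = 1 then e i0 + f i0 else e last
  have hker : LinearMap.ker (u - 1).mulVecLin ≤ Submodule.span F {w} := by
    intro v hv
    have hv' : u *ᵥ v = v := by
      have h : (u - 1) *ᵥ v = 0 := hv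
      rwa [Matrix.sub_mulVec, Matrix.one_mulVec, sub_eq_zero] at h
    rw [huv, Matrix.fromBlocks_mulVec, Matrix.zero_mulVec, Matrix.zero_mulVec, add_zero, zero_add] at hv'
    have h1 : A *ᵥ (fun i => v (σ (Sum.inl i))) = fun i => v (Sum.inl i) := funext fun i => congrFun hv' (Sum.inl i)
    have h2 : (fun i => v (σ (Sum.inr i))) = Aᵀ *ᵥ fun i => v (Sum.inr i) := by
      have h : A' *ᵥ (fun i => v (σ (Sum.inr i))) = fun i => v (Sum.inr i) := funext fun i => congrFun hv' (Sum.inr i)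
      rw [← h, Matrix.mulVec_mulVec, e1, Matrix.one_mulVec]
    have ha := fun i => congrFun h1 i
    have hb := fun i => congrFun h2 i
    simp only [hAv, hSv] at ha
    simp only [hAtv, hSt] at hb
    -- `y`
    have hy : ∀ i : Fin m, 2 ≤ i.val → v (Sum.inr i) = 0 := fun i hi => by
      have h := hb ⟨i.val - 1, by omega⟩
      rw [hσr _ (fun hh => by simp [i0, Fin.ext_iff] at hh; omega), dif_pos (show i.val - 1 + 1 < m by omega),
        left_eq_add] at h
      rw [← h]; congr 1; exact congrArg Sum.inr (Fin.ext (show i.val = i.val - 1 + 1 by omega))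
    -- `x`
    have hx : ∀ i : Fin m, 1 ≤ i.val → i.val + 1 < m → v (Sum.inl i) = 0 := fun i hi hi' => by
      have h := ha ⟨i.val + 1, hi'⟩
      rw [dif_pos (show 1 ≤ i.val + 1 by omega), hσl _ (fun hh => by simp [i0] at hh)] at h
      simp only [Nat.add_sub_cancel] at h
      rw [hσl _ (fun hh => by simp [i0, Fin.ext_iff] at hh; omega), add_eq_left] at h
      exact h
    have h00 := ha i0
    rw [dif_neg (show ¬ 1 ≤ i0.val by simp [i0]), add_zero, Equiv.swap_apply_left] at h00
    have h01 := hb i0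
    rw [Equiv.swap_apply_right, ← h00] at h01
    refine Submodule.mem_span_singleton.2 ⟨v (Sum.inl last), ?_⟩
    by_cases hm1 : m = 1
    · have : ∀ i : Fin m, i = i0 := fun i => Fin.ext (by simp [i0]; omega)
      ext (i | i)
      · rw [this i]; simp [w, hm1, e, f, this last]
      · rw [this i]; simp [w, hm1, e, f, this last, h00]
    · have hz : v (Sum.inr i0) = 0 := by
        have h := ha ⟨1, by omega⟩
        rw [dif_pos le_rfl, hσl _ (fun hh => by simp [i0] at hh)] at h
        simp only [show (⟨1 - 1, by omega⟩ : Fin m) = i0 from rfl] at h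
        rw [Equiv.swap_apply_left, add_eq_left] at h
        exact h
      have hy1 : ∀ h : (1 : ℕ) < m, v (Sum.inr ⟨1, h⟩) = 0 := fun h => by
        rw [dif_pos (show i0.val + 1 < m from h), left_eq_add] at h01
        exact h01
      have hyall : ∀ i : Fin m, v (Sum.inr i) = 0 := fun i => by
        rcases Nat.lt_or_ge i.val 2 with hi | hi
        · interval_cases h : i.val
          · rw [show i = i0 from Fin.ext h]; exact hz
          · rw [show i = ⟨1, by omega⟩ from Fin.ext h]; exact hy1 _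
        · exact hy i hi
      ext (i | i)
      · by_cases hi : i = last
        · subst hi; simp [w, hm1, e]
        · have hne : v (Sum.inl i) = 0 := by
            have : i.val ≠ m - 1 := fun h => hi (Fin.ext h)
            rcases Nat.eq_zero_or_pos i.val with h | h
            · rw [show i = i0 from Fin.ext h, ← h00]; exact hz
            · exact hx i h (by omega)
          simp [w, hm1, e, hi, hne]
      · simp [w, hm1, e, hyall i]
  refine ⟨Fin m ⊕ Fin m, inferInstance, inferInstance, fromBlocks 0 1 0 0, u, hyp_unit m, hiso, hnil,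
    sizes_regular hpos (by simp) hnil ?_⟩
  have h := LinearMap.finrank_range_add_finrank_ker (u - 1).mulVecLin
  rw [Module.finrank_fintype_fun_eq_card] at h
  have h2 : finrank F (LinearMap.range (u - 1).mulVecLin) = (u - 1).rank := rfl
  have h3 : finrank F (LinearMap.ker (u - 1).mulVecLin) ≤ 1 :=
    (Submodule.finrank_mono hker).trans ((finrank_span_le_card ({w} : Set _)).trans (by simp))
  have h4 : (u - 1).rank < Fintype.card (Fin m ⊕ Fin m) := by
    refine lt_of_le_of_ne (Matrix.rank_le_card_width _) fun hh => ?_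
    obtain ⟨k, hk⟩ := hnil
    have hu' : IsUnit (u - 1) := Matrix.linearIndependent_cols_iff_isUnit.1 (by
      rw [linearIndependent_iff_card_eq_finrank_span, Set.finrank, ← Matrix.rank_eq_finrank_span_cols, hh])
    have h5 := hu'.pow k
    rw [hk] at h5
    haveI : Nonempty (Fin m ⊕ Fin m) := ⟨Sum.inl i0⟩
    exact not_isUnit_zero h5
  simp at h h4
  omega

end CfsgLib.NilType
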